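import Cfsg.Agent.H4.Small
import Cfsg.Agent.QTNorm.SporQMinus
import Cfsg.Agent.KFacts.J3
import Cfsg.Agent.KFacts.J2.Facts
import Cfsg.Agent.S0243

/-!
# The rows `J₂`, `J₃`, `L₃(2)` with `ℒ_f(G, T) = ∅` (helper4)
-/

set_option autoImplicit false

namespace Cfsg.Agent.H4.Rows2

open Cfsg Subgroup Cfsg.Agent.J2Type.Model Cfsg.Agent.J2Type.CStruct Cfsg.Agent.QTNorm
open Cfsg.Agent.H4.Lf Cfsg.Agent.H4.LfTrans Cfsg.Agent.H4.Small

section model

variable {G : Type*} [Group G] {z : G}
variable {Q : Subgroup (centralizer ({z} : Set G))} {v : Fin 5 → centralizer ({z} : Set G)}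
  {ρ : centralizer ({z} : Set G) →* SP} {zc : centralizer ({z} : Set G)}

/-- the centralizer of a 2-central involution is `2^{1+4}_- : A₅` -/
theorem noLf_of_model [Finite G] (hE : IsOfEvenCharacteristic G) (M : IsModel Q zc v ρ) (T : Sylow 2 G)
    (hT : ∀ x ∈ T, x * z = z * x) : NoLf G := by
  obtain ⟨i0, h0⟩ := exists_fix T hT ρ
  refine noLf_of_normal hE T fun V hVT hVn hVa hVs => ?_
  -- `V` has at most four elements
  let f : V → Option (ZMod 2 ⊕ Unit) := fun x =>
    open Classical in
    if (x : G) = 1 then none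
    else if (x : G) = zc then some (Sum.inr ())
    else if h : ∃ a, cc (x : G) (hT x (hVT x.2)) = zp zc a * v i0 then some (Sum.inl h.choose) else none
  have hf : Function.Injective f := by
    intro x y hxy
    have hx := cases_of_mem M T hT h0 hVn hVa hVs (c := cc (x : G) (hT x (hVT x.2))) x.2
    have hy := cases_of_mem M T hT h0 hVn hVa hVs (c := cc (y : G) (hT y (hVT y.2))) y.2
    have e1 : ∀ w : V, cc (w : G) (hT w (hVT w.2)) = 1 ↔ (w : G) = 1 := fun w =>
      ⟨fun h => congrArg Subtype.val h, fun h => Subtype.ext h⟩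
    have e2 : ∀ w : V, cc (w : G) (hT w (hVT w.2)) = zc ↔ (w : G) = zc := fun w =>
      ⟨fun h => congrArg Subtype.val h, fun h => Subtype.ext h⟩
    rw [e1, e2] at hx hy
    simp only [f] at hxy
    by_cases hx1 : (x : G) = 1
    · by_cases hy1 : (y : G) = 1
      · exact Subtype.ext (hx1.trans hy1.symm)
      · rw [if_pos hx1, if_neg hy1] at hxy
        by_cases hyz : (y : G) = zc
        · rw [if_pos hyz] at hxy; exact absurd hxy (by simp)
        · rcases hy with h | h | h
          · exact absurd h hy1
          · exact absurd h hyz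
          · rw [if_neg hyz, dif_pos h] at hxy; exact absurd hxy (by simp)
    by_cases hxz : (x : G) = zc
    · rw [if_neg hx1, if_pos hxz] at hxy
      by_cases hy1 : (y : G) = 1
      · rw [if_pos hy1] at hxy; exact absurd hxy (by simp)
      by_cases hyz : (y : G) = zc
      · exact Subtype.ext (hxz.trans hyz.symm)
      · rcases hy with h | h | h
        · exact absurd h hy1
        · exact absurd h hyz
        · rw [if_neg hy1, if_neg hyz, dif_pos h] at hxy; exact absurd hxy (by simp)
    rcases hx with h | h | hx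
    · exact absurd h hx1
    · exact absurd h hxz
    rw [if_neg hx1, if_neg hxz, dif_pos hx] at hxy
    by_cases hy1 : (y : G) = 1
    · rw [if_pos hy1] at hxy; exact absurd hxy (by simp)
    by_cases hyz : (y : G) = zc
    · rw [if_neg hy1, if_pos hyz] at hxy; exact absurd hxy (by simp)
    rcases hy with h | h | hy
    · exact absurd h hy1
    · exact absurd h hyz
    rw [if_neg hy1, if_neg hyz, dif_pos hy] at hxy
    have h2 : hx.choose = hy.choose := by simpa using hxy
    have h3 := hx.choose_spec
    have h4 := hy.choose_spec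
    rw [h2] at h3
    exact Subtype.ext (congrArg (fun c : centralizer ({z} : Set G) => (c : G)) (h3.trans h4.symm))
  have h1 := Nat.card_le_card_of_injective f hf
  have h2 : Nat.card (Option (ZMod 2 ⊕ Unit)) = 4 := by
    rw [Nat.card_eq_fintype_card]; rfl
  omega

end model

/-- **`J₂`** -/
theorem j2 {G : Type*} [Group G] [Finite G] (hE : IsOfEvenCharacteristic G) (h : Spor.IsoJ2 G) : NoLf G := by
  obtain ⟨t, u, Q, v, ρ, D⟩ := Cfsg.Agent.KFacts.J2.Facts.exists_dat_of h
  have hodd : Odd (centralizer ({t} : Set G)).index := by rw [D.index]; decide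
  obtain ⟨T, hT⟩ := Omega.Quasithin.EvenOf.exists_sylow hodd
  exact noLf_of_model hE D.M T hT

/-- **`J₃`** -/
theorem j3 {G : Type*} [Group G] [Finite G] (hE : IsOfEvenCharacteristic G) (h : Spor.IsoJ3 G) : NoLf G := by
  obtain ⟨-, z, Q, v, ρ, n, u, F⟩ := Cfsg.Agent.KFacts.J3.exists_facts h
  have hodd : Odd (centralizer ({z} : Set G)).index := by
    have h1 := (centralizer ({z} : Set G)).card_mul_index
    rw [F.card_K, F.card_C] at h1
    have h2 : (centralizer ({z} : Set G)).index = 26163 := by omega
    rw [h2]; decide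
  obtain ⟨T, hT⟩ := Omega.Quasithin.EvenOf.exists_sylow hodd
  exact noLf_of_model hE F.model T hT

/-- **`L₃(2)`** -/
theorem psl3_two {G : Type*} [Group G] [Finite G] {F : Type*} [Field F] [Fintype F] (hF : Fintype.card F = 2)
    (e : G ≃* Matrix.ProjectiveSpecialLinearGroup (Fin 3) F) : NoLf G := by
  have hc := Cfsg.Agent.S0243.result (F := F) rfl 3 (by norm_num)
  rw [hF, Fin.prod_univ_three] at hc
  norm_num at hc
  refine noLf_of_sixteen (G := G) ?_
  rw [Nat.card_congr e.toEquiv, hc]
  norm_num

end Cfsg.Agent.H4.Rows2
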